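import Cfsg.Agent.H843.Ore.M23Ex
import Cfsg.Agent.Blocks.Deflate

/-!
# The fixed points of a normal subgroup with quotient `M₂₃` (helper843)

`N` finite, `f : N →* M` onto, `M = M₂₃`, `E` the kernel, `χ` a character of `N`, `x ∈ N`, `f x` of order 23, `χ (x e) = χ x`
for `e ∈ E`. If `χ x` is not real then the fixed space of `E` has dimension at least 770.
-/

set_option autoImplicit false

open Cfsg Subgroup Representation
open scoped ComplexConjugate

namespace Cfsg.Agent.H843.Ore.Fix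

open Cfsg.Agent.Characters.Core

universe u v

variable {N : Type u} [Group N] [Finite N]

/-- the sum of an irreducible character over a coset of a normal subgroup -/
theorem sum_irr (E : Subgroup N) [E.Normal] [Fintype E] (ψ : IrrCharacter N) :
    (∀ n : N, ∑ e : E, (ψ : N → ℂ) (n * e) = 0) ∨ ∃ ψ' : IrrCharacter (N ⧸ E),
      (ψ : N → ℂ) = (ψ' : N ⧸ E → ℂ) ∘ QuotientGroup.mk := by
  by_cases h : ∑ e : E, (ψ : N → ℂ) e = 0
  · left
    obtain ⟨m, ρ, hρ, hψ⟩ := ψ.2
    rw [← hψ] at h ⊢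
    set P : Module.End ℂ (Fin m → ℂ) := ∑ e : E, ρ e with hP
    have hcomm : ∀ g, P * ρ g = ρ g * P := by
      intro g
      rw [hP, Finset.sum_mul, Finset.mul_sum]
      refine Fintype.sum_equiv (MulAut.conjNormal g⁻¹ : MulAut E).toEquiv _ _ fun e => ?_
      rw [← map_mul, ← map_mul]
      congr 1
      simp only [MulEquiv.toEquiv_eq_coe, EquivLike.coe_coe, MulAut.conjNormal_apply]
      group
    obtain ⟨c, hc⟩ := Cfsg.Agent.Characters.Central.exists_smul_of_comm ρ hρ P hcomm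
    have htr : LinearMap.trace ℂ _ P = 0 := by
      have h1 : LinearMap.trace ℂ _ P = ∑ e : E, ρ.character e := by
        rw [hP, map_sum]
        rfl
      rw [h1]; exact h
    have hpos := Cfsg.Agent.Characters.Central.finrank_pos_of_irr ρ hρ
    have hc0 : c = 0 := by
      rw [hc] at htr
      have h2 : LinearMap.trace ℂ _ (1 : Module.End ℂ (Fin m → ℂ)) = (Module.finrank ℂ (Fin m → ℂ) : ℂ) :=
        LinearMap.trace_one ℂ _
      rw [map_smul, smul_eq_mul, h2] at htr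
      rcases mul_eq_zero.1 htr with h3 | h3
      · exact h3
      · exact absurd (Nat.cast_eq_zero.1 h3) (by omega)
    intro n
    have h1 : ∑ e : E, ρ.character (n * e) = LinearMap.trace ℂ _ (ρ n * P) := by
      rw [hP, Finset.mul_sum, map_sum]
      refine Finset.sum_congr rfl fun e _ => ?_
      rw [← map_mul]
      rfl
    rw [h1, hc, hc0, zero_smul, mul_zero, map_zero]
  · right
    exact Blocks.Deflate.exists_deflation E (ψ : N → ℂ) ψ.2 h

/-- **The dimension of the fixed space.** -/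
theorem le {M : Type v} [Group M] [Finite M] (hM : Cfsg.IsM23 M) (f : N →* M) (hf : Function.Surjective f)
    [Fintype f.ker] {χ : N → ℂ} (hχ : IsCharacter N χ) {x : N} (hx : orderOf (f x) = 23)
    (hxe : ∀ e, f e = 1 → χ (x * e) = χ x) (hr : conj (χ x) ≠ χ x) :
    ∃ w : ℕ, 770 ≤ w ∧ ∑ e : f.ker, χ e = w * (Nat.card f.ker : ℂ) := by
  classical
  have : Finite (IrrCharacter N) := finite_irr
  have := Fintype.ofFinite (IrrCharacter N)
  obtain ⟨m, hm⟩ := exists_nat_comb hχ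
  have hc0 : (Nat.card f.ker : ℂ) ≠ 0 := Nat.cast_ne_zero.2 Nat.card_pos.ne'
  have hval : ∀ g, χ g = ∑ ψ : IrrCharacter N, (m ψ : ℂ) * (ψ : N → ℂ) g := by
    intro g
    rw [hm]
    simp [Finset.sum_apply]
  -- the sums over the cosets
  let T : Finset (IrrCharacter N) := Finset.univ.filter fun ψ => ∃ ψ' : IrrCharacter (N ⧸ f.ker),
    (ψ : N → ℂ) = (ψ' : N ⧸ f.ker → ℂ) ∘ QuotientGroup.mk
  have hT : ∀ n : N, ∑ e : f.ker, χ (n * e) = Nat.card f.ker * ∑ ψ ∈ T, (m ψ : ℂ) * (ψ : N → ℂ) n := by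
    intro n
    simp only [hval]
    rw [Finset.sum_comm, Finset.mul_sum, ← Finset.sum_subset (Finset.subset_univ T)]
    · refine Finset.sum_congr rfl fun ψ hψ => ?_
      obtain ⟨ψ', hψ'⟩ := (Finset.mem_filter.1 hψ).2
      rw [← Finset.mul_sum]
      have h1 : ∀ e : f.ker, (ψ : N → ℂ) (n * e) = (ψ : N → ℂ) n := by
        intro e
        rw [hψ']
        show (ψ' : N ⧸ f.ker → ℂ) ((n * e : N) : N ⧸ f.ker) = (ψ' : N ⧸ f.ker → ℂ) (n : N ⧸ f.ker)
        have h2 : n⁻¹ * (n * (e : N)) ∈ f.ker := by rw [inv_mul_cancel_left]; exact e.2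
        exact congrArg (ψ' : N ⧸ f.ker → ℂ) (QuotientGroup.eq.2 h2).symm
      rw [Finset.sum_congr rfl fun e _ => h1 e, Finset.sum_const, Finset.card_univ, ← Nat.card_eq_fintype_card,
        nsmul_eq_mul]
      ring
    · intro ψ _ hψ
      rcases sum_irr f.ker ψ with h | h
      · rw [← Finset.mul_sum, h n, mul_zero]
      · exact absurd (show ψ ∈ T from Finset.mem_filter.2 ⟨Finset.mem_univ ψ, h⟩) hψ
  -- the value at `x`
  have hx1 : χ x = ∑ ψ ∈ T, (m ψ : ℂ) * (ψ : N → ℂ) x := by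
    have h1 := hT x
    rw [Finset.sum_congr rfl fun (e : f.ker) _ => hxe e e.2, Finset.sum_const, Finset.card_univ,
      ← Nat.card_eq_fintype_card, nsmul_eq_mul] at h1
    exact mul_left_cancel₀ hc0 h1
  -- a constituent which is not real
  obtain ⟨ψ, hψT, hψ0, hψr⟩ : ∃ ψ ∈ T, m ψ ≠ 0 ∧ conj ((ψ : N → ℂ) x) ≠ (ψ : N → ℂ) x := by
    by_contra hcon
    push Not at hcon
    apply hr
    rw [hx1, map_sum]
    refine Finset.sum_congr rfl fun ψ hψ => ?_
    rw [map_mul, Complex.conj_natCast]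
    by_cases h0 : m ψ = 0
    · rw [h0]; simp
    · rw [hcon ψ hψ h0]
  obtain ⟨ψ', hψ'⟩ := (Finset.mem_filter.1 hψT).2
  -- its degree
  let e := QuotientGroup.quotientKerEquivOfSurjective f hf
  let φ : IrrCharacter M := ⟨(ψ' : N ⧸ f.ker → ℂ) ∘ e.symm, isIrr_comp e.symm.toMonoidHom e.symm.surjective ψ'.2⟩
  have hφ : ∀ g : N, (φ : M → ℂ) (f g) = (ψ : N → ℂ) g := by
    intro g
    have h2 : e.symm (f g) = (g : N ⧸ f.ker) := by
      rw [MulEquiv.symm_apply_eq]
      rfl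
    show (ψ' : N ⧸ f.ker → ℂ) (e.symm (f g)) = _
    rw [h2, hψ']
    rfl
  have hdeg := M23Ex.deg_eq hM φ hx (by rw [hφ]; exact hψr)
  have hd1 : (ψ : N → ℂ) 1 = 770 := by
    have h1 := hφ 1
    rw [map_one, Blocks.Knorr.charDegree_eq φ.2, hdeg] at h1
    rw [← h1]; norm_num
  -- the dimension of the fixed space
  have hnat : ∀ ψ : IrrCharacter N, (ψ : N → ℂ) 1 = charDegree (ψ : N → ℂ) := fun ψ => Blocks.Knorr.charDegree_eq ψ.2
  have hd2 : charDegree (ψ : N → ℂ) = 770 := by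
    have h1 := hnat ψ
    rw [hd1] at h1
    exact_mod_cast h1.symm
  refine ⟨∑ ψ ∈ T, m ψ * charDegree (ψ : N → ℂ), ?_, ?_⟩
  · have h1 : m ψ * charDegree (ψ : N → ℂ) ≤ ∑ ψ ∈ T, m ψ * charDegree (ψ : N → ℂ) :=
      Finset.single_le_sum (f := fun ψ : IrrCharacter N => m ψ * charDegree (ψ : N → ℂ))
        (fun _ _ => Nat.zero_le _) hψT
    have h2 : 1 ≤ m ψ := Nat.one_le_iff_ne_zero.2 hψ0
    rw [hd2] at h1
    calc 770 = 1 * 770 := by norm_num
      _ ≤ m ψ * 770 := Nat.mul_le_mul_right _ h2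
      _ ≤ _ := h1
  · have h1 := hT 1
    simp only [one_mul] at h1
    rw [h1]
    push_cast
    rw [mul_comm]
    congr 1
    exact Finset.sum_congr rfl fun ψ _ => by rw [hnat]

end Cfsg.Agent.H843.Ore.Fix
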