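import Cfsg.Agent.H417.DegMTwentyThree

/-!
# The characters of `M₂₃` which are not real at the elements of order 23 (helper843)
-/

set_option autoImplicit false

open Cfsg Subgroup
open scoped ComplexConjugate

namespace Cfsg.Agent.H843.Ore.M23Ex

open Cfsg.Agent.M23Order.Base
open Cfsg.Agent.M23Order.Setup
open Cfsg.Agent.M23Order.TwentyThree

universe u
variable {G : Type u} [Group G] [Finite G]

/-- **An irreducible character of `M₂₃` which is not real at an element of order 23 has degree 770.** -/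
theorem deg_eq (hG : Cfsg.IsM23 G) (φ : IrrCharacter G) {x : G} (hx : orderOf x = 23)
    (hr : conj ((φ : G → ℂ) x) ≠ (φ : G → ℂ) x) : charDegree (φ : G → ℂ) = 770 := by
  have hF : Fact (Nat.Prime 23) := ⟨by norm_num⟩
  obtain ⟨hs, H, z, v, a, b, c, d, g, h, b₁, c₁, K⟩ := H417.DegMTwentyThree.exists_elev' hG
  obtain ⟨-, -, -, -, -, -, -, -, -, -, -, hf⟩ := exists_block K
  -- a conjugate of `x` in `P`
  obtain ⟨Q, hQ⟩ := (IsPGroup.of_card (G := zpowers x) (p := 23) (n := 1)
    (by rw [Nat.card_zpowers, hx, pow_one])).exists_le_sylow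
  obtain ⟨k, hk⟩ := MulAction.exists_smul_eq G Q H.P
  have hxP : k * x * k⁻¹ ∈ (H.P : Subgroup G) := by
    rw [← hk]
    exact Subgroup.smul_mem_pointwise_smul x (MulAut.conj k) (Q : Subgroup G) (hQ (mem_zpowers x))
  have hx1 : k * x * k⁻¹ ≠ 1 := by
    intro h1
    have h2 : x = 1 := by rwa [conj_eq_one_iff] at h1
    rw [h2, orderOf_one] at hx
    norm_num at hx
  have hv : (φ : G → ℂ) (k * x * k⁻¹) = (φ : G → ℂ) x := Characters.Core.isIrr_isClassFunction φ.2 x k
  by_cases h1 : φ ∈ H.D.NE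
  · exfalso
    apply hr
    rw [← hv, H.D.val φ h1 _ hxP hx1, map_intCast]
  · by_cases h2 : φ ∈ H.D.X
    · have h3 := H.D.deg_X φ h2
      rw [hf] at h3
      exact h3
    · exfalso
      apply hr
      rw [← hv, H.D.out φ h1 h2 _ hxP hx1, map_zero]

end Cfsg.Agent.H843.Ore.M23Ex
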